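import Mathlib
import Cfsg.Agent.Lib.FLA.Odd

/-!
Quadratic `p`-elements commuting with `a` centralize `E`.
-/

set_option autoImplicit false
set_option linter.unusedSectionVars false

namespace CfsgLib.FLA

open Subgroup Cfsg CfsgLib.Tech CfsgLib.Flav
open scoped commutatorElement

theorem q1 {F A : Type*} [Field F] [Ring A] [Algebra F A] (h2 : (2 : F) ≠ 0) {x u : A} (hu : u * u = 1)
    (hx : (x - 1) ^ 2 = 0) (hux : (u * x - 1) ^ 2 = 0) : u = 1 := by
  have h1 : x * (2 - x) = 1 := by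
    have : x * (2 - x) = 1 - (x - 1) ^ 2 := by noncomm_ring
    rw [this, hx, sub_zero]
  have h3 : u * x - 2 + (2 - x) * u = 0 := by
    have e : (u * x - 1) ^ 2 * ((2 - x) * u) =
        u * x * u * (x * (2 - x)) * u - 2 * (u * (x * (2 - x)) * u) + (2 - x) * u := by noncomm_ring
    rw [hux, zero_mul, h1, mul_one, mul_one, mul_assoc (u * x), hu, mul_one, mul_one] at e
    exact e.symm
  have h4 : x * u - 2 + u * (2 - x) = 0 := by
    have e : u * (u * x - 2 + (2 - x) * u) * u =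
        (u * u) * x * u - 2 * (u * u) + u * (2 - x) * (u * u) := by noncomm_ring
    rw [h3, mul_zero, zero_mul, hu, mul_one, mul_one, one_mul] at e
    exact e.symm
  have h5 : (4 : F) • (u - 1) = 0 := by
    have e : (u * x - 2 + (2 - x) * u) + (x * u - 2 + u * (2 - x)) = 4 * (u - 1) := by
      rw [show (4 : A) = 2 + 2 by norm_num, ← one_add_one_eq_two]; noncomm_ring
    rw [h3, h4, add_zero] at e
    rw [Algebra.smul_def, map_ofNat, ← e]
  have h6 : (4 : F) ≠ 0 := by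
    rw [show (4 : F) = 2 * 2 by norm_num]; exact mul_ne_zero h2 h2
  exact sub_eq_zero.1 ((smul_eq_zero.1 h5).resolve_left h6)

theorem anti {A : Type*} [Ring A] {x y : A} (hx : x * x = -1) (hy : y * y = -1)
    (h : x * y * (x * y) = -1) : y * x = -(x * y) := by
  have e : x * (x * y * (x * y)) * y = (x * x) * y * x * (y * y) := by noncomm_ring
  rw [h, hx, hy] at e
  have : y * x = -1 * y * x * -1 := by noncomm_ring
  rw [this, ← e]; noncomm_ring

theorem tri {A : Type*} [Ring A] {x y z : A} (hx : x * x = -1) (hy : y * y = -1) (hz : z * z = -1)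
    (h1 : y * x = -(x * y)) (h2 : z * x = -(x * z)) (h3 : z * y = -(y * z)) :
    x * y * z * (x * y * z) = 1 := by
  calc x * y * z * (x * y * z) = x * y * (z * x) * y * z := by noncomm_ring
    _ = -(x * (y * x) * (z * y) * z) := by rw [h2]; noncomm_ring
    _ = -((x * x) * (y * y) * (z * z)) := by rw [h1, h3]; noncomm_ring
    _ = 1 := by rw [hx, hy, hz]; noncomm_ring

theorem sw_subgroupOf {Γ : Type*} [Group Γ] {H E : Subgroup Γ} {a : H} (h : Sw (a : Γ) E) :
    Sw a (E.subgroupOf H) := by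
  have k : ∀ w : H, w ∈ fx a (E.subgroupOf H) ↔ (w : Γ) ∈ fx (a : Γ) E := fun w => by
    rw [mem_fx, mem_fx, mem_subgroupOf]
    exact and_congr_right fun _ => ⟨fun e => congrArg Subtype.val e.eq, fun e => Subtype.ext e.eq⟩
  refine ⟨h.two.comap_subtype, ?_, fun x hx => (k _).2 (h.sq x hx), fun x hx y hy => (k _).2 (h.cm x hx y hy),
    fun w hw x hx => Subtype.ext (h.cen w ((k _).1 hw) x hx).eq, fun w hw => Subtype.ext (h.inv w ((k _).1 hw))⟩
  exact mem_normalizer_iff.2 fun y => mem_normalizer_iff.1 h.norm y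

section
variable {F : Type*} [Field F] {V : Type*} [AddCommGroup V] [Module F V] {Γ : Type*} [Group Γ]

/-- The elements acting as `± 1`. -/
def pm (σ : Representation F Γ V) : Subgroup Γ where
  carrier := {g | σ g = 1 ∨ σ g = -1}
  one_mem' := .inl (map_one σ)
  mul_mem' := by
    rintro a b (ha | ha) (hb | hb) <;> simp [ha, hb]
  inv_mem' := by
    intro g hg
    have e : σ g * σ g⁻¹ = 1 := by rw [← map_mul, mul_inv_cancel, map_one]
    rcases hg with h | h
    · rw [h, one_mul] at e; exact .inl e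
    · rw [h, neg_one_mul, neg_eq_iff_eq_neg] at e; exact .inr e

theorem mem_pm {σ : Representation F Γ V} {g : Γ} : g ∈ pm σ ↔ σ g = 1 ∨ σ g = -1 := Iff.rfl

theorem pm_comm {σ : Representation F Γ V} {g : Γ} (h : g ∈ pm σ) (t : Module.End F V) : Commute t (σ g) := by
  rcases h with h | h <;> rw [h]
  exacts [Commute.one_right t, Commute.neg_one_right t]

theorem pm_sq {σ : Representation F Γ V} {g : Γ} (h : g ∈ pm σ) : σ g * σ g = 1 := by
  rcases h with h | h <;> simp [h]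

theorem rep_conj (σ : Representation F Γ V) {g y : Γ} (h : Commute (σ g) (σ y)) : σ (g * y * g⁻¹) = σ y := by
  rw [map_mul, map_mul, h.eq, mul_assoc, ← map_mul, mul_inv_cancel, map_one, mul_one]

instance pm_normal (σ : Representation F Γ V) : (pm σ).Normal :=
  ⟨fun y hy g => by rw [mem_pm, rep_conj σ (pm_comm hy _)]; exact hy⟩

theorem quad_conj (σ : Representation F Γ V) {x : Γ} (hq : (σ x - 1) ^ 2 = 0) (g : Γ) :
    (σ (g * x * g⁻¹) - 1) ^ 2 = 0 := by
  have e : σ g * σ g⁻¹ = 1 := by rw [← map_mul, mul_inv_cancel, map_one]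
  have e' : σ g⁻¹ * σ g = 1 := by rw [← map_mul, inv_mul_cancel, map_one]
  have e1 : σ (g * x * g⁻¹) - 1 = σ g * (σ x - 1) * σ g⁻¹ := by
    rw [map_mul, map_mul, mul_sub, sub_mul, mul_one, e]
  have e2 : (σ g * (σ x - 1) * σ g⁻¹) ^ 2 = σ g * (σ x - 1) * (σ g⁻¹ * σ g) * (σ x - 1) * σ g⁻¹ := by
    noncomm_ring
  rw [e1, e2, e', mul_one, mul_assoc (σ g), ← pow_two, hq, mul_zero, zero_mul]

end

theorem comm_of_pow {Q : Type*} [Group Q] {g m : Q} {l k d : ℕ} (hl : l.Prime) (h5 : 5 ≤ l)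
    (hg : g ^ l ^ k = 1) (hd : 0 < d) (hd3 : d ≤ 3) (h : Commute (g ^ d) m) : Commute g m := by
  have hc : d.Coprime (orderOf g) :=
    (Nat.Coprime.pow_right k ((Nat.coprime_comm.1 ((Nat.Prime.coprime_iff_not_dvd hl).2
      (Nat.not_dvd_of_pos_of_lt hd (by omega)))))).coprime_dvd_right (orderOf_dvd_of_pow_eq_one hg)
  obtain ⟨j, hj⟩ := exists_pow_eq_self_of_coprime hc
  rw [← hj]; exact h.pow_left j

theorem qs0 {F : Type*} [Field F] {p r : ℕ} [hpp : Fact p.Prime] (h2 : (2 : F) ≠ 0) (hp : p ≠ 2) (hr : r.Prime)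
    (hr2 : r ≠ 2) (hrp : r ≠ p) {V : Type*} [AddCommGroup V] [Module F V] [FiniteDimensional F V]
    [Nontrivial V] {Γ : Type*} [Group Γ] [Finite Γ] (σ : Representation F Γ V) {a x : Γ} (ha : a ^ r = 1)
    {E : Subgroup Γ} (hE : Sw a E) (hx : x ∈ 𝒩(E)) (hax : Commute a x) {k : ℕ} (hxp : x ^ p ^ k = 1)
    (hq : (σ x - 1) ^ 2 = 0) (hgen : ∀ L : Subgroup Γ, E ≤ L → x ∈ L → a ∈ L → L = ⊤)
    (hirr : ∀ U : Submodule F V, (∀ g, ∀ w ∈ U, σ g w ∈ U) → U = ⊥ ∨ U = ⊤) :
    ∀ e ∈ E, σ ⁅x, e⁆ = 1 := by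
  have : Fact (Nat.Prime 2) := ⟨Nat.prime_two⟩
  have hne : (1 : Module.End F V) ≠ -1 := fun e => by
    have e1 : (2 : F) • (1 : Module.End F V) = 0 := by rw [two_smul]; nth_rw 2 [e]; simp
    exact one_ne_zero ((smul_eq_zero.1 e1).resolve_left h2)
  -- (1), (2): `W` acts by signs
  have hW : ∀ w ∈ fx a E, w ∈ pm σ := by
    intro w hw
    have hww := hE.inv w hw
    have hwi : w⁻¹ = w := inv_eq_of_mul_eq_one_right hww
    have hu : w * (x * w * x⁻¹) ∈ fx a E := mul_mem hw (mem_fx.2 ⟨cj_mem hx hw.1,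
      (hax.mul_right (fx_comm hw)).mul_right hax.inv_right⟩)
    have e : w * x * w⁻¹ = w * (x * w * x⁻¹) * x := by rw [hwi]; group
    have h1 : σ (w * (x * w * x⁻¹)) = 1 := q1 h2 (by rw [← map_mul, hE.inv _ hu, map_one]) hq
      (by rw [← map_mul, ← e]; exact quad_conj σ hq w)
    have hxw : Commute (σ x) (σ w) := by
      have e2 : w * (w * (x * w * x⁻¹)) * x = x * w := by rw [← mul_assoc, hww]; group
      change σ x * σ w = σ w * σ x
      rw [← map_mul, ← e2, map_mul, map_mul, h1, mul_one]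
    have hst : ∀ g, Commute (σ g) (σ w) → g ∈ HH.stab σ (LinearMap.ker (σ w + 1)) := fun g hg =>
      HH.mem_stab.2 fun v hv => by
        rw [LinearMap.mem_ker] at hv ⊢
        rw [← Module.End.mul_apply, ← (hg.add_right (Commute.one_right _)).eq, Module.End.mul_apply, hv,
          map_zero]
    have htop := hgen _ (fun g hg => hst g ((hE.cen w hw g hg).symm.map σ)) (hst x hxw)
      (hst a ((fx_comm hw).map σ))
    rcases hirr _ (fun g => HH.mem_stab.1 (htop ▸ mem_top g)) with h | h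
    · left
      have e3 : (σ w + 1) * (σ w - 1) = 0 := by
        have : (σ w + 1) * (σ w - 1) = σ w * σ w - 1 := by noncomm_ring
        rw [this, ← map_mul, hww, map_one, sub_self]
      refine sub_eq_zero.1 (LinearMap.ext fun v => ?_)
      have : (σ w - 1) v ∈ LinearMap.ker (σ w + 1) := by
        rw [LinearMap.mem_ker, ← Module.End.mul_apply, e3, LinearMap.zero_apply]
      rwa [h, Submodule.mem_bot] at this
    · exact .inr (eq_neg_of_add_eq_zero_left (LinearMap.ker_eq_top.1 h))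
  let π := QuotientGroup.mk' (pm σ)
  have hπ : ∀ g, π g = 1 ↔ g ∈ pm σ := fun g => QuotientGroup.eq_one_iff g
  have hπc : ∀ e ∈ E, ∀ f ∈ E, Commute (π e) (π f) := fun e he f hf =>
    of_comm_one (by rw [← map_commutatorElement, hπ]; exact hW _ (hE.cm e he f hf))
  have hπ2 : ∀ e ∈ E, π e * π e = 1 := fun e he => by rw [← map_mul, hπ]; exact hW _ (hE.sq e he)
  -- (3)
  let φ : E →* Γ ⧸ pm σ := MonoidHom.mk' (fun e => π ⁅x, (e : Γ)⁆) fun e f => by
    have e1 : ⁅x, ((e * f : E) : Γ)⁆ = ⁅x, (e : Γ)⁆ * ((e : Γ) * ⁅x, (f : Γ)⁆ * (e : Γ)⁻¹) := by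
      simp only [coe_mul, commutatorElement_def]; group
    rw [e1, map_mul, map_mul π ((e : Γ) * _), map_mul π (e : Γ), map_inv,
      comm_conj_eq (hπc _ e.2 _ (comm_mem_right hx f.2))]
  set K := ⁅E, zpowers x⁆ with hK
  have hKE : K ≤ E := kk_le hx
  have hxK : x ∈ 𝒩(K) := a_norm_kk x E
  have haK : a ∈ 𝒩(K) := norm_comm hE.norm (norm_of_comm fun y hy => by
    obtain ⟨i, rfl⟩ := hy; exact hax.zpow_right i)
  have hKφ : K ≤ φ.range.comap π := by
    refine comm_zp_le (mem_norm fun m hm => ?_) fun e he => ⟨⟨e, he⟩, rfl⟩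
    obtain ⟨e, he⟩ := hm
    refine ⟨⟨x * e * x⁻¹, cj_mem hx e.2⟩, ?_⟩
    have e1 : ⁅x, x * e * x⁻¹⁆ = x * ⁅x, (e : Γ)⁆ * x⁻¹ := by simp only [commutatorElement_def]; group
    change π ⁅x, x * e * x⁻¹⁆ = _
    rw [e1, map_mul, map_mul, map_mul, map_mul]
    exact congrArg (fun t => π x * t * π x⁻¹) he
  have key : ∀ m ∈ K, m ∉ pm σ → σ m * σ m = -1 := by
    intro m hm hm1
    obtain ⟨e, he⟩ := hKφ hm
    have h1 : ⁅x, (e : Γ)⁆⁻¹ * m ∈ pm σ := by
      rw [← hπ, map_mul, map_inv]; exact inv_mul_eq_one.2 he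
    rw [commutatorElement_inv] at h1
    have hc : ⁅(e : Γ), x⁆ ∈ E := comm_mem_left hx e.2
    rcases hW _ (hE.sq _ hc) with h | h
    · rw [map_mul] at h
      have h3 := q1 h2 h hq (by
        rw [← map_mul, show ⁅(e : Γ), x⁆ * x = e * x * (e : Γ)⁻¹ by simp only [commutatorElement_def]; group]
        exact quad_conj σ hq e)
      rw [mem_pm, map_mul, h3, one_mul] at h1
      exact absurd h1 hm1
    · rw [map_mul] at h
      have h3 := pm_sq h1
      have h4 := (pm_comm h1 (σ ⁅(e : Γ), x⁆)).eq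
      rw [map_mul] at h3 h4
      set A := σ ⁅(e : Γ), x⁆
      have e1 : A * (A * σ m) * (A * (A * σ m)) = A * (A * σ m * A) * (A * σ m) := by noncomm_ring
      have e2 : A * (A * (A * σ m)) * (A * σ m) = (A * A) * (A * σ m * (A * σ m)) := by noncomm_ring
      rw [← h4, e2, h3, ← mul_assoc A A, h, mul_one] at e1
      rw [← e1]; noncomm_ring
  have three : ∀ m ∈ K, ∀ n ∈ K, ∀ l ∈ K, m ∉ pm σ → n ∉ pm σ → l ∉ pm σ → m * n ∉ pm σ → m * l ∉ pm σ →
      n * l ∉ pm σ → m * n * l ∈ pm σ := by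
    intro m hm n hn l hl h1 h2' h3 h4 h5 h6
    by_contra h7
    have k1 := key m hm h1
    have k2 := key n hn h2'
    have k3 := key l hl h3
    have k4 := key _ (mul_mem hm hn) h4
    have k5 := key _ (mul_mem hm hl) h5
    have k6 := key _ (mul_mem hn hl) h6
    have k7 := key _ (mul_mem (mul_mem hm hn) hl) h7
    simp only [map_mul] at k4 k5 k6 k7
    exact hne ((tri k1 k2 k3 (anti k1 k2 k4) (anti k1 k3 k5) (anti k2 k3 k6)).symm.trans k7)
  -- (4)
  have four : ∀ {g : Γ} {l j : ℕ}, l.Prime → 5 ≤ l → g ^ l ^ j = 1 → g ∈ 𝒩(K) → ⁅K, zpowers g⁆ ≤ pm σ := by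
    intro g l j hl h5 hg hgK
    refine comm_zp_le (le_normalizer_of_normal (mem_top g)) fun m hm => ?_
    by_contra hc
    have hm1 : m ∉ pm σ := fun h => hc (comm_mem_right (le_normalizer_of_normal (mem_top g)) h)
    have a1 : ∀ i : ℕ, g ^ i * m * (g ^ i)⁻¹ ∈ K := fun i => cj_mem (pow_mem hgK i) hm
    have a2 : ∀ i : ℕ, g ^ i * m * (g ^ i)⁻¹ ∉ pm σ := fun i h =>
      hm1 (of_cj_mem (le_normalizer_of_normal (mem_top _)) h)
    have a3 : ∀ i d : ℕ, 0 < d → d ≤ 3 →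
        π (g ^ i * m * (g ^ i)⁻¹) ≠ π (g ^ (i + d) * m * (g ^ (i + d))⁻¹) := by
      intro i d hd hd3 h
      apply hc
      rw [← hπ, map_commutatorElement]
      refine comm_one (comm_of_pow hl h5 (k := j) (by rw [← map_pow, hg, map_one]) hd hd3 (comm_of_conj_eq ?_))
      simp only [map_mul, map_inv, map_pow, pow_add] at h
      calc π g ^ d * π m * (π g ^ d)⁻¹ =
          (π g ^ i)⁻¹ * (π g ^ i * π g ^ d * π m * (π g ^ i * π g ^ d)⁻¹) * π g ^ i := by group
        _ = π m := by rw [← h]; group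
    have a4 : ∀ i d : ℕ, 0 < d → d ≤ 3 →
        g ^ i * m * (g ^ i)⁻¹ * (g ^ (i + d) * m * (g ^ (i + d))⁻¹) ∉ pm σ := by
      intro i d hd hd3 h
      rw [← hπ, map_mul] at h
      exact a3 i d hd hd3 (mul_left_cancel ((hπ2 _ (hKE (a1 i))).trans h.symm))
    have b1 := three _ (a1 0) _ (a1 1) _ (a1 2) (a2 0) (a2 1) (a2 2) (a4 0 1 (by omega) (by omega))
      (a4 0 2 (by omega) (by omega)) (a4 1 1 (by omega) (by omega))
    have b2 := three _ (a1 0) _ (a1 1) _ (a1 3) (a2 0) (a2 1) (a2 3) (a4 0 1 (by omega) (by omega))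
      (a4 0 3 (by omega) (by omega)) (a4 1 2 (by omega) (by omega))
    rw [← hπ, map_mul] at b1 b2
    exact a3 2 1 (by omega) (by omega) (mul_left_cancel (b1.trans b2.symm))
  have hKK : ⁅K, zpowers x⁆ = K :=
    Coprime.commutator_commutator_eq (zp_le hx) (cop_zp hpp.out hp hxp hE.two)
  have hKR : K ≤ pm σ := by
    by_cases h5 : 5 ≤ p
    · exact hKK.ge.trans (four hpp.out h5 hxp hxK)
    · have hp3 : p = 3 := by
        have := hpp.out.two_le
        have h4 : p ≠ 4 := fun e => absurd (e ▸ hpp.out) (by norm_num)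
        omega
      have hr5 : 5 ≤ r := by
        have := hr.two_le
        have h4 : r ≠ 4 := fun e => absurd (e ▸ hr) (by norm_num)
        omega
      have ha' : a ^ r ^ 1 = 1 := by rwa [pow_one]
      intro m hm
      obtain ⟨u, hu, c, hc, rfl⟩ := Coprime.exists_commutator_mul_centralizer (zp_le haK)
        (cop_zp hr hr2 ha' (hE.two.to_le hKE)) (.inl (Coprime.isSolvable_zpowers a)) hm
      exact mul_mem (four hr hr5 ha' haK hu) (hW c (mem_fx.2 ⟨hKE hc.1, cent_zp.1 hc.2⟩))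
  -- (5)
  have hker : K ≤ σ.ker := hKK.ge.trans (comm_zp_le (le_normalizer_of_normal (mem_top x)) fun m hm => by
    rw [MonoidHom.mem_ker, commutatorElement_def, map_mul, rep_conj σ (pm_comm (hKR hm) _), ← map_mul,
      mul_inv_cancel, map_one])
  exact fun e he => hker (comm_mem_zp he)

theorem qs1 {F : Type*} [Field F] {p r : ℕ} [Fact p.Prime] [CharP F p] (hp : p ≠ 2) (hr : r.Prime) (hr2 : r ≠ 2)
    (hrp : r ≠ p) {V : Type*} [AddCommGroup V] [Module F V] [FiniteDimensional F V] {Γ : Type*} [Group Γ]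
    [Finite Γ] (ρ : Representation F Γ V) {a x : Γ} (ha : a ^ r = 1) {E : Subgroup Γ} (hE : Sw a E)
    (hx : x ∈ 𝒩(E)) (hax : Commute a x) {k : ℕ} (hxp : x ^ p ^ k = 1) (hq : (ρ x - 1) ^ 2 = 0) :
    ∀ e ∈ E, ρ ⁅x, e⁆ = 1 := by
  intro e he
  by_contra hne
  have h2 : (2 : F) ≠ 0 := fun h => by
    have := (CharP.cast_eq_zero_iff F p 2).1 (by exact_mod_cast h)
    exact hp ((Nat.prime_dvd_prime_iff_eq Fact.out Nat.prime_two).1 this)
  let H : Subgroup Γ := E ⊔ zpowers x ⊔ zpowers a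
  have hEH : E ≤ H := le_sup_left.trans le_sup_left
  have hxH : x ∈ H := mem_sup_left (mem_sup_right (mem_zpowers x))
  have haH : a ∈ H := mem_sup_right (mem_zpowers a)
  obtain ⟨j, hj⟩ := isPGroup_iff_mem.1 hE.two _ (comm_mem_right hx he)
  obtain ⟨W, _, _, _, _, σ, hirr, hz, hd⟩ := HH.exists_irred (F := F) (G := H) ⁅(⟨x, hxH⟩ : H), (⟨e, hEH he⟩ : H)⁆ (2 ^ j)
    (by exact_mod_cast pow_ne_zero j h2) _ (ρ.comp H.subtype) rfl
    (by rw [← map_pow]; change ρ (⁅x, e⁆ ^ 2 ^ j) = 1; rw [hj, map_one]) hne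
  refine hz (qs0 h2 hp hr hr2 hrp σ (a := ⟨a, haH⟩) (x := ⟨x, hxH⟩) (Subtype.ext ha) (sw_subgroupOf hE)
    (mem_normalizer_iff.2 fun y => mem_normalizer_iff.1 hx y) (Subtype.ext hax.eq) (k := k) (Subtype.ext hxp)
    (hd.sub_one_pow_eq_zero _ 2 hq) (fun L h1 h3 h4 => ?_) hirr _ he)
  have : H ≤ L.map H.subtype := sup_le (sup_le (fun y hy => ⟨⟨y, hEH hy⟩, h1 hy, rfl⟩) (zp_le ⟨_, h3, rfl⟩))
    (zp_le ⟨_, h4, rfl⟩)
  refine eq_top_iff.2 fun y _ => ?_
  obtain ⟨z, hz, e⟩ := this y.2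
  rwa [← Subtype.ext e]

end CfsgLib.FLA
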