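import Mathlib
import Cfsg.Agent.Lib.FLA.Odd
import Cfsg.Agent.Lib.FLA.QS
import Cfsg.Agent.Lib.Flav.ActS
import Cfsg.Agent.Lib.ZJ.Stable
import Cfsg.Agent.Lib.PLocal.Constrained
import Cfsg.Agent.Lib.Perm.PermModule

/-!
A `ZJ` factorization of the groups `S E ⟨a⟩`.
-/

set_option autoImplicit false
set_option linter.unusedSectionVars false

namespace CfsgLib.FLA

open Subgroup Cfsg CfsgLib.Tech CfsgLib.Flav
open scoped commutatorElement

theorem Sw.map {Γ Δ : Type*} [Group Γ] [Finite Γ] [Group Δ] {a : Γ} {E : Subgroup Γ} (h : Sw a E)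
    (hcop : (Nat.card (zpowers a)).Coprime (Nat.card E)) (f : Γ →* Δ) : Sw (f a) (E.map f) := by
  have k : fx (f a) (E.map f) = (fx a E).map f := by
    have := Coprime.map_inf_centralizer f (zp_le h.norm)
      (hcop.coprime_dvd_right (card_dvd_of_le inf_le_left)) (.inl (Coprime.isSolvable_zpowers a))
    rw [MonoidHom.map_zpowers, Core.centralizer_zpowers, Core.centralizer_zpowers] at this
    exact this.symm
  refine ⟨h.two.map f, le_normalizer_map f (mem_map_of_mem f h.norm), ?_, ?_, ?_, ?_⟩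
  · rintro _ ⟨x, hx, rfl⟩
    rw [k, ← map_mul]; exact mem_map_of_mem f (h.sq x hx)
  · rintro _ ⟨x, hx, rfl⟩ _ ⟨y, hy, rfl⟩
    rw [k, ← map_commutatorElement]; exact mem_map_of_mem f (h.cm x hx y hy)
  · rw [k]
    rintro _ ⟨w, hw, rfl⟩ _ ⟨x, hx, rfl⟩
    exact (h.cen w hw x hx).map f
  · rw [k]
    rintro _ ⟨w, hw, rfl⟩
    rw [← map_mul, h.inv w hw, map_one]

theorem Sw.subgroupOf {Γ : Type*} [Group Γ] {H E : Subgroup Γ} {a : H} (h : Sw (a : Γ) E) :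
    Sw a (E.subgroupOf H) := sw_subgroupOf h

theorem pg_triv {F : Type*} [Field F] {p : ℕ} [Fact p.Prime] [CharP F p] {V : Type*} [AddCommGroup V]
    [Module F V] [Nontrivial V] {Q : Type*} [Group Q] [Finite Q] (σ : Representation F Q V)
    (hirr : ∀ U : Submodule F V, (∀ g, ∀ w ∈ U, σ g w ∈ U) → U = ⊥ ∨ U = ⊤) {J : Subgroup Q}
    (hJ : IsPGroup p J) (h : ∀ g, ∀ v ∈ HH.fixSp σ J, σ g v ∈ HH.fixSp σ J) : J ≤ σ.ker := by
  obtain ⟨v, -, hv0, hv⟩ := Perm.exists_fixed_of_isPGroup hJ (σ.comp J.subtype) ⊤ (fun _ _ _ => trivial)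
    top_ne_bot
  have e := (hirr _ h).resolve_left fun e => hv0 (by
    rw [← Submodule.mem_bot F, ← e]; exact fun g hg => hv ⟨g, hg⟩)
  exact fun j hj => LinearMap.ext fun w => (show w ∈ HH.fixSp σ J from e ▸ Submodule.mem_top) j hj

theorem cop_ar {Γ : Type*} [Group Γ] [Finite Γ] {p r : ℕ} [Fact p.Prime] (hr : r.Prime) (hrp : r ≠ p) {a : Γ}
    (ha : a ^ r = 1) {S : Subgroup Γ} (hS : IsPGroup p S) : (Nat.card (zpowers a)).Coprime (Nat.card S) :=
  cop_zp (n := 1) hr hrp (by rwa [pow_one]) hS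

theorem irr_triv {F : Type*} [Field F] {p r : ℕ} [Fact p.Prime] [CharP F p] {V : Type*} [AddCommGroup V]
    [Module F V] [FiniteDimensional F V] [Nontrivial V] {Q : Type*} [Group Q] [Finite Q] (hp : p ≠ 2)
    (hr : r.Prime) (hr2 : r ≠ 2) (hrp : r ≠ p) {a : Q} (ha : a ^ r = 1) {S Y E : Subgroup Q}
    (hS : IsSylowIn p S ⊤) (hYS : Y ≤ S) [hY : Y.Normal] [hN : (Y ⊔ E).Normal] (hE : Sw a E)
    (haS : ∀ s ∈ S, ⁅a, s⁆ ∈ Y) (htop : S ⊔ E ⊔ zpowers a = ⊤) (σ : Representation F Q V)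
    (hirr : ∀ U : Submodule F V, (∀ g, ∀ w ∈ U, σ g w ∈ U) → U = ⊥ ∨ U = ⊤) {x : Q}
    (hx : IsPGroup p (zpowers x)) (hq : (σ x - 1) ^ 2 = 0) : x ∈ σ.ker := by
  have hall : ∀ (K : Subgroup Q) [K.Normal] (g : Q), g ∈ 𝒩(K) := fun K _ g => le_normalizer_of_normal (mem_top g)
  have hYk : Y ≤ σ.ker := pg_triv σ hirr (hS.pgroup.to_le hYS) fun g v hv => HH.apply_mem_fixSp (hall Y g) hv
  obtain ⟨g, -, hg⟩ := hS.exists_conj_mem (mem_top x) hx
  refine of_cj_mem (hall _ g) ?_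
  have hq' := quad_conj σ hq g
  generalize g * x * g⁻¹ = x at hg hq'
  obtain ⟨y, hy, c, hc, hac, hcE, rfl⟩ := adjust hp hS.pgroup hYS hE.two (fun g _ => hall Y g) hE.norm
    (cop_ar hr hrp ha hS.pgroup) (fun g _ => hall _ g) haS hg
  refine mul_mem (hYk hy) ?_
  rw [map_mul, hYk hy, one_mul] at hq'
  obtain ⟨k, hk⟩ := isPGroup_iff_mem.1 hS.pgroup c hc
  have h1 := qs1 hp hr hr2 hrp σ ha hE hcE hac hk hq'
  let J := S ⊓ cm σ.ker ((Y ⊔ E : Subgroup Q) : Set Q)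
  have hn : ∀ g, g ∈ 𝒩(S) → g ∈ 𝒩(J) := fun g hg =>
    norm_inf hg (norm_cm (hall _ g) fun c hc => cj_mem' (hall _ g) hc)
  refine pg_triv σ hirr (J := J) (hS.pgroup.to_le inf_le_left) (fun g => HH.mem_stab.1 ?_) ⟨hc, hall _ c, ?_⟩
  · refine (show ⊤ ≤ HH.stab σ (HH.fixSp σ J) from htop ▸ sup_le (sup_le ?_ ?_) (zp_le ?_)) (mem_top g)
    · exact fun s hs => HH.mem_stab.2 fun v hv => HH.apply_mem_fixSp (hn s (norm_of_mem hs)) hv
    · refine fun e he => HH.mem_stab.2 fun v hv j hj => ?_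
      have h2 : σ ⁅j, e⁆ = 1 := hj.2.2 e (mem_sup_right he)
      have h3 : j * e = ⁅j, e⁆ * e * j := by simp only [commutatorElement_def]; group
      rw [← Module.End.mul_apply, ← map_mul, h3, map_mul, map_mul, h2, one_mul, Module.End.mul_apply, hv j hj]
    · exact HH.mem_stab.2 fun v hv => HH.apply_mem_fixSp (hn a (mem_norm_of_comm fun s hs => hYS (haS s hs))) hv
  · intro t ht
    obtain ⟨y', hy', e, he, rfl⟩ := (Core.mem_sup_of_le_normalizer_left (fun g _ => hall Y g)).1 ht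
    have h3 : ⁅c, y' * e⁆ = ⁅c, y'⁆ * (y' * ⁅c, e⁆ * y'⁻¹) := by simp only [commutatorElement_def]; group
    rw [h3]
    exact mul_mem (comm_mem_right (hall _ c) (hYk hy')) (cj_mem (hall _ y') (h1 e he))

theorem quadStable_of {Q : Type*} [Group Q] [Finite Q] {p r : ℕ} [Fact p.Prime] (hp : p ≠ 2) (hr : r.Prime)
    (hr2 : r ≠ 2) (hrp : r ≠ p) {a : Q} (ha : a ^ r = 1) {S Y E : Subgroup Q} (hS : IsSylowIn p S ⊤) (hYS : Y ≤ S)
    [Y.Normal] [(Y ⊔ E).Normal] (hE : Sw a E) (haS : ∀ s ∈ S, ⁅a, s⁆ ∈ Y) (htop : S ⊔ E ⊔ zpowers a = ⊤) :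
    ZJ.QuadStable p Q := by
  intro B hBn hB A hA _ hq
  let φ : Q →* MulAut B := MulAut.conjNormal
  let ρ := (frRep hB).comp φ
  have hρ : ∀ g (b : B) v, PLocal.ElemMod.toG v = (b : B ⧸ frattini B) →
      PLocal.ElemMod.toG (ρ g v) = (φ g b : B ⧸ frattini B) := fun g b v hv => by
    change (PF.actQuot (MonoidHom.id _) (frattini B)) (φ g) (PLocal.ElemMod.toG v) = _
    rw [hv]; rfl
  have hquad : ∀ x ∈ A, (ρ x - 1) ^ 2 = 0 := by
    intro x hx
    refine LinearMap.ext fun v => ?_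
    obtain ⟨b, hb⟩ := QuotientGroup.mk_surjective (PLocal.ElemMod.toG v)
    have h1 : PLocal.ElemMod.toG (ρ x v - v) = ((φ x b * b⁻¹ : B) : B ⧸ frattini B) := by
      rw [PLocal.ElemMod.toG_sub, hρ x b v hb.symm, ← hb]; rfl
    have h2 : φ x (φ x b * b⁻¹) = φ x b * b⁻¹ := by
      apply Subtype.ext
      have h3 : ⁅x, (b : Q)⁆ ∈ ⁅B, A⁆ := comm_symm (commutator_mem_commutator b.2 hx)
      have h4 : ⁅⁅x, (b : Q)⁆, x⁆ = 1 := mem_bot.1 (hq ▸ commutator_mem_commutator h3 hx)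
      exact comm_conj_eq (of_comm_one h4).symm
    rw [pow_two, Module.End.mul_apply, LinearMap.zero_apply, LinearMap.sub_apply, LinearMap.sub_apply,
      Module.End.one_apply, Module.End.one_apply, sub_eq_zero]
    apply PLocal.ElemMod.toG_injective
    rw [hρ x _ _ h1, h2, h1]
  have hker : ∀ g, φ g = 1 ↔ g ∈ centralizer (B : Set Q) := fun g =>
    ⟨fun h b hb => (comm_of_conj_eq (congrArg (fun ψ : MulAut B => (ψ ⟨b, hb⟩ : Q)) h)).eq.symm,
      fun h => MulEquiv.ext fun b => Subtype.ext (comm_conj_eq (h b b.2).symm)⟩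
  have := (normalClosure_normal (s := (A : Set Q))).map _
    (QuotientGroup.mk'_surjective (centralizer (B : Set Q)))
  refine (map_mono le_normalClosure).trans (Core.le_pCore (PLocal.Constr.isPGroup_of_forall_coprime ?_))
  rintro ⟨_, z, hz, rfl⟩ hc
  rw [← orderOf_coe] at hc
  set m := orderOf (QuotientGroup.mk' (centralizer (B : Set Q)) z) with hm
  have h1 : φ z ^ m = 1 := by
    rw [← map_pow, hker, ← QuotientGroup.eq_one_iff, ← QuotientGroup.mk'_apply, map_pow, pow_orderOf_eq_one]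
  refine Subtype.ext ((QuotientGroup.eq_one_iff z).2 ((hker z).1 (frRep_ker hB ?_
    (hc.coprime_dvd_left (orderOf_dvd_of_pow_eq_one h1)))))
  by_contra hne
  obtain ⟨W, _, _, _, _, σ, hirr, hσ, hd⟩ := HH.exists_irred (F := ZMod p) z m
    (fun e => (Nat.Prime.coprime_iff_not_dvd Fact.out).1 hc.symm ((ZMod.natCast_eq_zero_iff m p).1 e)) _ ρ rfl
    (by change frRep hB (φ z) ^ m = 1; rw [← map_pow, h1, map_one]) hne
  exact hσ (normalClosure_le_normal (N := σ.ker) (fun x hx => irr_triv hp hr hr2 hrp ha hS hYS hE haS htop σ hirr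
    (isPGroup_zpowers_of_mem hA hx) (hd.sub_one_pow_eq_zero x 2 (hquad x hx))) hz)

theorem zj0 {Γ : Type*} [Group Γ] [Finite Γ] {p r : ℕ} [hpp : Fact p.Prime] (hp : p ≠ 2) (hr : r.Prime)
    (hr2 : r ≠ 2) (hrp : r ≠ p) {a : Γ} (ha : a ^ r = 1) {S Y E : Subgroup Γ} (hS : IsPGroup p S) (hYS : Y ≤ S)
    (hSY : S ≤ 𝒩(Y)) (hEY : E ≤ 𝒩(Y)) (hSn : S ≤ 𝒩(Y ⊔ E)) (hE : Sw a E) (haS : ∀ s ∈ S, ⁅a, s⁆ ∈ Y)
    (htop : S ⊔ E ⊔ zpowers a = ⊤)
    {e : Γ} (he : e ∈ E) : ∃ e₀ ∈ E, e₀ ∈ centralizer (Y : Set Γ) ∧ e₀⁻¹ * e ∈ 𝒩(ZJ.zj p S) := by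
  have : Fact (Nat.Prime 2) := ⟨Nat.prime_two⟩
  have haY : a ∈ 𝒩(Y) := mem_norm_of_comm fun y hy => haS y (hYS hy)
  have haS' : a ∈ 𝒩(S) := mem_norm_of_comm fun s hs => hYS (haS s hs)
  have hY : IsPGroup p Y := hS.to_le hYS
  have nY : Y.Normal := normalizer_eq_top_iff.1 (eq_top_iff.2 (htop ▸ sup_le (sup_le hSY hEY) (zp_le haY)))
  have nYE : (Y ⊔ E).Normal := normalizer_eq_top_iff.1 (eq_top_iff.2 (htop ▸ sup_le
    (sup_le hSn fun g hg => norm_of_mem (mem_sup_right hg)) (zp_le (norm_sup haY hE.norm))))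
  have hSE : S ⊔ (Y ⊔ E) = S ⊔ E := by rw [← sup_assoc, sup_eq_left.2 hYS]
  have haSE : zpowers a ≤ 𝒩(S ⊔ E) := zp_le (norm_sup haS' hE.norm)
  have htop' : zpowers a ⊔ (S ⊔ E) = ⊤ := by rw [sup_comm, htop]
  have hsolv : Group.IsSolvable Γ := by
    have := Coprime.isSolvable_of_isPGroup hS
    have := Coprime.isSolvable_of_isPGroup hY
    have := Coprime.isSolvable_of_isPGroup hE.two
    have := Coprime.isSolvable_zpowers a
    have : Group.IsSolvable (Y ⊔ E : Subgroup Γ) := sup_comm Y E ▸ Core.isSolvable_sup_of_normal E Y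
    have : Group.IsSolvable (S ⊔ E : Subgroup Γ) := hSE ▸ Core.isSolvable_sup_of_normal S (Y ⊔ E)
    have : Group.IsSolvable (⊤ : Subgroup Γ) := htop' ▸ Core.isSolvable_sup_of_le_normalizer haSE
    exact Core.isSolvable_of_mulEquiv topEquiv
  have hidx : ¬ p ∣ S.index := by
    have h1 := Core.card_sup_mul_card_inf_of_normal S (Y ⊔ E)
    have h2 : Nat.card (Y ⊔ E : Subgroup Γ) ∣ Nat.card E * Nat.card Y :=
      sup_comm Y E ▸ Core.card_sup_dvd_of_normal E Y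
    have h3 : Nat.card Y ∣ Nat.card (S ⊓ (Y ⊔ E) : Subgroup Γ) := card_dvd_of_le (le_inf hYS le_sup_left)
    have h4 : Nat.card (S ⊔ E : Subgroup Γ) ∣ Nat.card S * Nat.card E := by
      refine Nat.dvd_of_mul_dvd_mul_right (Nat.card_pos (α := Y)) ?_
      rw [hSE] at h1
      exact (Nat.mul_dvd_mul_left _ h3).trans (h1 ▸ mul_assoc (Nat.card S) _ _ ▸ Nat.mul_dvd_mul_left _ h2)
    have h5 := Core.card_sup_dvd_of_le_normalizer haSE
    rw [htop', card_top, ← S.card_mul_index] at h5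
    have h6 : S.index ∣ Nat.card (zpowers a) * Nat.card E := by
      refine Nat.dvd_of_mul_dvd_mul_left (Nat.card_pos (α := S)) ?_
      exact h5.trans (mul_left_comm (Nat.card S) _ _ ▸ Nat.mul_dvd_mul_left _ h4)
    intro h
    rcases (Nat.Prime.dvd_mul hpp.out).1 (h.trans h6) with h7 | h7
    · rw [Nat.card_zpowers] at h7
      exact hrp ((Nat.prime_dvd_prime_iff_eq hpp.out hr).1 (h7.trans (orderOf_dvd_of_pow_eq_one ha))).symm
    · exact (Nat.Prime.coprime_iff_not_dvd hpp.out).1 (Core.isPGroup_coprime_card hE.two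
        ((Nat.coprime_primes hpp.out Nat.prime_two).2 hp)).symm h7
  have hSyl : IsSylowIn p S ⊤ := ⟨le_top, hS, by rwa [relIndex_top_right]⟩
  set O := pPrimeCore p Γ with hO
  have nO : O.Normal := inferInstance
  let π := QuotientGroup.mk' O
  have hπ : Function.Surjective π := QuotientGroup.mk'_surjective O
  have := nY.map π hπ
  have : (Y.map π ⊔ E.map π).Normal := map_sup Y E π ▸ nYE.map π hπ
  have hst : ZJ.QuadStable p (Γ ⧸ O) := quadStable_of hp hr hr2 hrp (a := π a) (by rw [← map_pow, ha, map_one])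
    (S := S.map π) (Y := Y.map π) (E := E.map π)
    ⟨le_top, hS.map π, by rw [relIndex_top_right]; exact fun h => hidx (h.trans (index_map_dvd S hπ))⟩
    (map_mono hYS) (hE.map (cop_ar hr hr2 ha hE.two) π)
    (by rintro _ ⟨s, hs, rfl⟩; rw [← map_commutatorElement]; exact mem_map_of_mem π (haS s hs))
    (by rw [← MonoidHom.map_zpowers, ← Subgroup.map_sup, ← Subgroup.map_sup, htop, map_top_of_surjective π hπ])
  have hz := ZJ.pPrimeCore_sup_normalizer_zj hp (.inr rfl) PLocal.Constr.isPConstrained_of_isSolvable hst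
    hSyl.toSylowTop (ZJ.isStronglyClosed_self S)
  set X := ZJ.zj p S with hX
  have hXS : X ≤ S := ZJ.zj_le S
  have hcO : (Nat.card O).Coprime p := Core.coprime_card_pPrimeCore p Γ
  have hall : ∀ g, g ∈ 𝒩(X ⊔ O) := fun g => (show ⊤ ≤ 𝒩(X ⊔ O) from hz ▸ sup_le
    (fun o ho => norm_of_mem (mem_sup_right ho))
    fun n hn => norm_sup hn (le_normalizer_of_normal (mem_top n))) (mem_top g)
  have hOY : Y ⊓ O = ⊥ := Core.isPGroup_inf_eq_bot_of_coprime hY hcO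
  have h1 : O ⊓ (S ⊔ E) = O ⊓ (Y ⊔ E) := by
    refine le_antisymm (fun o ho => ⟨ho.1, ?_⟩) (inf_le_inf_left _ (sup_le_sup_right hYS E))
    have h2 := ho.2
    rw [← hSE, sup_comm] at h2
    obtain ⟨t, ht, s, hs, rfl⟩ := (Core.mem_sup_of_le_normalizer_left hSn).1 h2
    obtain ⟨k, hk⟩ := isPGroup_iff_mem.1 hS s hs
    obtain ⟨t', ht', e1⟩ := pow_split ht (hSn hs) (p ^ k)
    obtain ⟨j, hj⟩ := exists_pow_eq_self_of_coprime
      ((Core.subgroup_coprime_card_iff.1 hcO _ ho.1).pow_right k).symm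
    rw [← hj, e1, hk, mul_one]
    exact pow_mem ht' j
  have h2 : IsPGroup 2 (O ⊓ (Y ⊔ E) : Subgroup Γ) := isPGroup_iff_mem.2 fun o ho => by
    obtain ⟨y, hy, f, hf, rfl⟩ := (Core.mem_sup_of_le_normalizer_left hEY).1 ho.2
    obtain ⟨k, hk⟩ := isPGroup_iff_mem.1 hE.two f hf
    obtain ⟨y', hy', e1⟩ := pow_split hy (hEY hf) (2 ^ k)
    refine ⟨k, mem_bot.1 (hOY ▸ ⟨?_, pow_mem ho.1 _⟩)⟩
    rw [e1, hk, mul_one]; exact hy'
  have h3 : O ⊓ (Y ⊔ E) ≤ E := (syl_sup hp hY hE.two (.inl hEY)).le_of_le_normalizer h2 inf_le_right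
    le_normalizer_of_normal
  have h4 : O ≤ centralizer (Y : Set Γ) := Core.le_centralizer_of_normal_of_disjoint (by rwa [inf_comm])
  have h5 : e ∈ 𝒩(O ⊓ (Y ⊔ E) ⊔ X) := by
    rw [sup_comm, ← h1, ← Core.sup_inf_assoc_of_normal_right (hXS.trans le_sup_left)]
    exact norm_inf (hall e) (norm_of_mem (mem_sup_right he))
  obtain ⟨n, hn, h6⟩ := (syl_sup hp.symm h2 (hS.to_le hXS) (.inl le_normalizer_of_normal)).frattini h5
  rw [sup_comm] at hn
  obtain ⟨x, hx, o, ho, rfl⟩ := (Core.mem_sup_of_le_normalizer_right le_normalizer_of_normal).1 hn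
  refine ⟨o⁻¹, inv_mem (h3 ho), inv_mem (h4 ho.1), ?_⟩
  rw [inv_inv]
  rw [mul_assoc] at h6
  exact (Subgroup.mul_mem_cancel_left _ (norm_of_mem hx)).1 h6

theorem zj_factor {Γ : Type*} [Group Γ] [Finite Γ] {p r : ℕ} [Fact p.Prime] (hp : p ≠ 2) (hr : r.Prime)
    (hr2 : r ≠ 2) (hrp : r ≠ p) {a : Γ} (ha : a ^ r = 1) {S Y E : Subgroup Γ} (hS : IsPGroup p S) (hYS : Y ≤ S)
    (hSY : S ≤ 𝒩(Y)) (hEY : E ≤ 𝒩(Y)) (hSn : S ≤ 𝒩(Y ⊔ E)) (hE : Sw a E) (haS : ∀ s ∈ S, ⁅a, s⁆ ∈ Y)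
    {e : Γ} (he : e ∈ E) : ∃ e₀ ∈ E, e₀ ∈ centralizer (Y : Set Γ) ∧ e₀⁻¹ * e ∈ 𝒩(ZJ.zj p S) := by
  let H : Subgroup Γ := S ⊔ E ⊔ zpowers a
  have hSH : S ≤ H := le_sup_left.trans le_sup_left
  have hEH : E ≤ H := le_sup_right.trans le_sup_left
  have haH : a ∈ H := mem_sup_right (mem_zpowers a)
  have hn : ∀ {K : Subgroup Γ} {g : H}, (g : Γ) ∈ 𝒩(K) → g ∈ 𝒩(K.subgroupOf H) := fun h =>
    mem_normalizer_iff.2 fun y => mem_normalizer_iff.1 h y
  obtain ⟨e₀, h1, h2, h3⟩ := zj0 hp hr hr2 hrp (a := (⟨a, haH⟩ : H)) (Subtype.ext ha) (S := S.subgroupOf H)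
    (Y := Y.subgroupOf H) (E := E.subgroupOf H) hS.comap_subtype (fun _ h => hYS h) (fun _ h => hn (hSY h))
    (fun _ h => hn (hEY h)) (fun _ h => by
      rw [← subgroupOf_sup (hYS.trans hSH) hEH]; exact hn (hSn h)) hE.subgroupOf (fun s hs => haS s hs)
    (map_injective H.subtype_injective (by
      rw [Subgroup.map_sup, Subgroup.map_sup, map_subgroupOf_eq_of_le hSH, map_subgroupOf_eq_of_le hEH, MonoidHom.map_zpowers,
        ← MonoidHom.range_eq_map, range_subtype]; rfl)) (e := ⟨e, hEH he⟩) he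
  refine ⟨e₀, h1, fun y hy => congrArg Subtype.val (h2 ⟨y, hSH (hYS hy)⟩ hy), ?_⟩
  have h4 := le_normalizer_map H.subtype (mem_map_of_mem H.subtype h3)
  rwa [ZJ.map_zj_of_disjoint (by rw [ker_subtype, inf_bot_eq]), map_subgroupOf_eq_of_le hSH] at h4

end CfsgLib.FLA
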